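import Cfsg.Agent.Lib.Chev.Simple
import Cfsg.Agent.Lib.Lie.AxOf

/-!
Subgroups containing the elements `n_p` and some root subgroups: propagating the root subgroups along
the Weyl group and the commutator formula, with checkable certificates.
-/

set_option autoImplicit false
set_option linter.unusedSectionVars false
set_option linter.unusedVariables false

namespace Cfsg.Agent.Lib.Mono.Gen

open scoped MatrixGroups Matrix
open Cfsg Lie ChevalleyDatum
open Cfsg.Agent.Lib.Chev
open Tables Tables2 Tables3 Tables4 Raise Basic AxBasic Torus Products Products2 Mono1 Mono2 Mono3 Bn ChevSimple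

variable {D : ChevalleyDatum} {F : Type*} [Field F]

variable (h : Tab D) (h2 : Tab2 D) (ax : Ax D F) (K : Subgroup (GL D.Idx F))

/-- The root subgroup of `r` lies in `K`. -/
def QR (r : ℕ) : Prop := ∀ t : F, xG ax r t ∈ K

include h h2 in
lemma QR_reflect (hK : ∀ i, i < D.rank → sG ax i ∈ K) {i r : ℕ} (hi : i < D.rank) (hr : r < D.nroots)
    (hQ : QR ax K r) : QR ax K (D.reflectRoot i r) := by
  intro t
  obtain ⟨c, hc⟩ := exists_isNor_sG h ax h2 (F := F) hi
  have e := hc.conj ⟨r, hr⟩ ((c ⟨r, hr⟩ : F)⁻¹ * t)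
  have e2 : (c ⟨r, hr⟩ : F) * ((c ⟨r, hr⟩ : F)⁻¹ * t) = t := by
    have := (c ⟨r, hr⟩).ne_zero
    field_simp
  rw [e2, wF_val] at e
  rw [← e]
  exact K.mul_mem (K.mul_mem (hK i hi) (hQ _)) (K.inv_mem (hK i hi))

include h h2 in
lemma QR_word (hK : ∀ i, i < D.rank → sG ax i ∈ K) {l : List ℕ} (hl : ∀ i ∈ l, i < D.rank)
    {r : ℕ} (hr : r < D.nroots) (hQ : QR ax K r) : QR ax K (wWord D l r) := by
  induction l with
  | nil => exact hQ
  | cons i l ih =>
    have hl' : ∀ j ∈ l, j < D.rank := fun j hj => hl j (by simp [hj])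
    exact QR_reflect h h2 ax K hK (hl i (by simp)) (wWord_lt h hl' hr) (ih hl')

omit h h2 in
lemma QR_comm {a b r : ℕ} {c : ℤ} (ha : a < D.nroots) (hb : b < D.nroots) (hab : b ≠ a) (hn : b ≠ D.neg a)
    (ht : D.commTerms a b = [(r, c, 1, 1)]) (hc : (c : F) ≠ 0)
    (hQa : QR ax K a) (hQb : QR ax K b) : QR ax K r := by
  intro v
  have e := xG_comm ax ha hb hab hn (-1 : F) ((c : F)⁻¹ * v)
  have e2 : wordG ax (D.commWord F a b (-1) ((c : F)⁻¹ * v)) = xG ax r v := by
    simp only [commWord, ht, List.map_cons, List.map_nil, wordG, List.prod_cons, List.prod_nil, mul_one]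
    congr 1
    simp only [neg_neg, one_pow, mul_one, pow_one]
    field_simp
  rw [e2] at e
  have e3 : xG ax r v = (xG ax a (-1) * xG ax b ((c : F)⁻¹ * v))⁻¹ * (xG ax b ((c : F)⁻¹ * v) * xG ax a (-1)) := by
    rw [e]; group
  rw [e3]
  exact K.mul_mem (K.inv_mem (K.mul_mem (hQa _) (hQb _))) (K.mul_mem (hQb _) (hQa _))

include h h2 in
/-- The Chevalley group lies in `K` when `K` contains the `n_p` and the fundamental root subgroups. -/
theorem group_le (hK : ∀ i, i < D.rank → sG ax i ∈ K) (hs : ∀ i, i < D.rank → QR ax K (D.simple i)) :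
    D.group F ≤ K := by
  have hall := all_roots_of_simple h h2 ax (K := K)
    (fun i hi g hg => K.mul_mem (K.mul_mem (hK i hi) hg) (K.inv_mem (hK i hi))) hs
  rw [ChevalleyDatum.group, Subgroup.closure_le]
  rintro g ⟨r, t, hg⟩
  have : g = xG ax r.1 t := eq_xG ax (by
    rw [hg]
    simp [ChevalleyDatum.x])
  rw [this]
  exact hall r.1 r.2 t

/-- A certificate that a fundamental root subgroup lies in `K`. -/
inductive Cert where
  | word (s : ℕ) (w : List ℕ)
  | comm (s : ℕ) (w₁ w₂ : List ℕ) (c : ℤ)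

/-- The check of a certificate: `S` is the list of nodes known, the coefficients are `±p`. -/
def Cert.check (D : ChevalleyDatum) (S : List ℕ) (p : ℤ) (j : ℕ) : Cert → Bool
  | .word s w => S.contains s && s < D.rank && w.all (fun i => i < D.rank) && (wWord D w (D.simple s) == D.simple j)
  | .comm s w₁ w₂ c => S.contains s && s < D.rank && w₁.all (fun i => i < D.rank) && w₂.all (fun i => i < D.rank) &&
      (c == p || c == -p) &&
      (wWord D w₂ (D.simple s) != wWord D w₁ (D.simple s)) &&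
      (wWord D w₂ (D.simple s) != D.neg (wWord D w₁ (D.simple s))) &&
      (D.commTerms (wWord D w₁ (D.simple s)) (wWord D w₂ (D.simple s)) == [(D.simple j, c, 1, 1)])

include h h2 in
lemma Cert.sound (hK : ∀ i, i < D.rank → sG ax i ∈ K) {S : List ℕ} {p : ℤ} (hp : (p : F) ≠ 0)
    (hS : ∀ s ∈ S, QR ax K (D.simple s)) {j : ℕ} {C : Cert} (hC : C.check D S p j = true) :
    QR ax K (D.simple j) := by
  cases C with
  | word s w =>
    simp only [Cert.check, Bool.and_eq_true, List.contains_iff_mem, decide_eq_true_eq, List.all_eq_true,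
      beq_iff_eq] at hC
    obtain ⟨⟨⟨hs, hs'⟩, hw⟩, he⟩ := hC
    rw [← he]
    exact QR_word h h2 ax K hK hw (h.simple_lt s hs') (hS s hs)
  | comm s w₁ w₂ c =>
    simp only [Cert.check, Bool.and_eq_true, List.contains_iff_mem, decide_eq_true_eq, List.all_eq_true,
      beq_iff_eq, Bool.or_eq_true, bne_iff_ne] at hC
    obtain ⟨⟨⟨⟨⟨⟨⟨hs, hs'⟩, hw₁⟩, hw₂⟩, hc⟩, hne⟩, hne'⟩, he⟩ := hC
    have hsl := h.simple_lt s hs'
    refine QR_comm ax K (wWord_lt h hw₁ hsl) (wWord_lt h hw₂ hsl) hne hne' he ?_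
      (QR_word h h2 ax K hK hw₁ hsl (hS s hs)) (QR_word h h2 ax K hK hw₂ hsl (hS s hs))
    rcases hc with rfl | rfl
    · exact hp
    · simpa using hp

/-- The check of a list of certificates, one for each node. -/
def checkAll (D : ChevalleyDatum) (S : List ℕ) (p : ℤ) (l : List Cert) : Bool :=
  (List.range D.rank).all fun j => match l[j]? with
    | some C => C.check D S p j
    | none => false

include h h2 in
theorem of_checkAll (hK : ∀ i, i < D.rank → sG ax i ∈ K) {S : List ℕ} {p : ℤ} (hp : (p : F) ≠ 0)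
    (hS : ∀ s ∈ S, QR ax K (D.simple s)) {l : List Cert} (hC : checkAll D S p l = true) :
    D.group F ≤ K := by
  refine group_le h h2 ax K hK ?_
  intro j hj
  have := (List.all_eq_true.mp hC) j (List.mem_range.mpr hj)
  cases hl : l[j]? with
  | none => simp [hl] at this
  | some C =>
    simp only [hl] at this
    exact Cert.sound h h2 ax K hK hp hS this

omit h h2 in
lemma QR_rootSubgroup (r : ℕ) : QR ax (D.rootSubgroup F r) r := fun t =>
  Subgroup.subset_closure ⟨t, rfl⟩

include h h2 in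
lemma sG_mem_sup_left (L : Subgroup (GL D.Idx F)) {i : ℕ} (hi : i < D.rank) :
    sG ax i ∈ D.monomialSubgroup F ⊔ L :=
  (le_sup_left : D.monomialSubgroup F ≤ _) (sG_mem_monomial h h2 ax hi)

end Cfsg.Agent.Lib.Mono.Gen
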